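import Mathlib
import Cfsg.Agent.R2.T1.Odd.O4
import Cfsg.Agent.R2.T1.P3.Q3e
import Cfsg.Agent.R2.T1.P3.Cj

/-!
# S5771, P3: the adapter for `n = 8` (helper5)

* `exists_sev` : the vectors `v_i(x)`, `v_i(y)` for a basis `x`, `y` of `U = V^Q` form a `Sev`;
* `stab_sev` : their span is stable under the preimage of `H`.
-/

set_option autoImplicit false
set_option maxRecDepth 100000

namespace Cfsg.Agent.R2.T1.P3

open Cfsg Cfsg.Lie Module Equiv Equiv.Perm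
open Cfsg.Agent.H943.E7V.Block (D1 rho)
open Cfsg.Agent.H952.F4 (MaxAlt ev)
open Cfsg.Agent.R2.T1
open Cfsg.Agent.R2.T1.Odd (CfgT CfgU vi inv Tg gQ vi_equi vi_sum vi_four gram fix_pt two_trans EE EE_mem EE_U EE_adj)

universe u

section
variable {F : Type u} [Field F] {ψ : ↥(alternatingGroup (Fin 8)) →* Gh F}

/-- the representation -/
noncomputable abbrev rp (F : Type u) [Field F] (ψ : ↥(alternatingGroup (Fin 8)) →* Gh F) :
    Representation F ↥(alternatingGroup (Fin 8)) (D1 → F) := MonoidHom.comp (V F) ψ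

theorem sixteen_ne (h2 : (2 : F) ≠ 0) : (16 : F) ≠ 0 := by
  have : (16 : F) = 2 * 2 * (2 * 2) := by norm_num
  rw [this]
  exact mul_ne_zero (mul_ne_zero h2 h2) (mul_ne_zero h2 h2)

/-- a basis of `U` -/
theorem exists_basis (hC : CfgT (rp F ψ) (sf F)) : ∃ x ∈ inv (rp F ψ) (Tg 8 gQ), ∃ y ∈ inv (rp F ψ) (Tg 8 gQ),
    x ≠ 0 ∧ ∀ u ∈ inv (rp F ψ) (Tg 8 gQ), ∃ α β : F, u = α • x + β • y := by
  have hd := hC.dim
  have hfin := hC.fin
  let b := Module.finBasisOfFinrankEq F ↥(inv (rp F ψ) (Tg 8 gQ)) hd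
  refine ⟨b 0, (b 0).2, b 1, (b 1).2, fun h => b.ne_zero 0 (Subtype.ext h), fun u hu => ?_⟩
  have h1 := b.sum_repr ⟨u, hu⟩
  rw [Fin.sum_univ_two] at h1
  exact ⟨_, _, (congrArg Subtype.val h1).symm⟩

theorem basis_ne (hC : CfgT (rp F ψ) (sf F)) {x y : D1 → F} (hx : x ∈ inv (rp F ψ) (Tg 8 gQ)) (hx0 : x ≠ 0)
    (hs : ∀ u ∈ inv (rp F ψ) (Tg 8 gQ), ∃ α β : F, u = α • x + β • y) : sf F x y ≠ 0 := by
  intro h0
  apply hx0
  apply sf_nondeg'
  intro w
  obtain ⟨α, β, h1⟩ := hs _ (EE_mem (ρ := rp F ψ) w)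
  have h2 := EE_adj (ρ := rp F ψ) (B := sf F) hC.isom x w
  rw [EE_U (by norm_num) hx, h1] at h2
  simp only [map_add, map_smul, h0, sf_self, mul_zero, add_zero, LinearMap.smul_apply, smul_eq_mul] at h2
  exact (mul_eq_zero.1 h2).resolve_left (sixteen_ne hC.two)

theorem sev_of (hC : CfgT (rp F ψ) (sf F)) {x y : D1 → F} (hx : x ∈ inv (rp F ψ) (Tg 8 gQ)) (hx0 : x ≠ 0)
    (hy : y ∈ inv (rp F ψ) (Tg 8 gQ)) (hs : ∀ u ∈ inv (rp F ψ) (Tg 8 gQ), ∃ α β : F, u = α • x + β • y) :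
    Sev ψ (fun i => vi (rp F ψ) i x) (fun i => vi (rp F ψ) i y) (sf F x y / 16) := by
  have h16 := sixteen_ne hC.two
  have key : ∀ {u u' : D1 → F}, u ∈ inv (rp F ψ) (Tg 8 gQ) → u' ∈ inv (rp F ψ) (Tg 8 gQ) → ∀ i j,
      sf F (vi (rp F ψ) i u) (vi (rp F ψ) j u') = (if i = j then 7 * (sf F u u' / 16) else - (sf F u u' / 16)) := by
    intro u u' hu hu' i j
    have h := gram hC hu hu' i j
    split_ifs with hij
    · rw [if_pos hij] at h
      field_simp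
      linear_combination h
    · rw [if_neg hij] at h
      field_simp
      linear_combination h
  refine ⟨fun g i => vi_equi hC.toCfgU g i hx, fun g i => vi_equi hC.toCfgU g i hy, vi_sum hC hx, vi_sum hC hy, ?_, ?_,
    fun i j => key hx hy i j, div_ne_zero (basis_ne hC hx hx0 hs) h16⟩
  · intro i j
    show sf F (vi (rp F ψ) i x) (vi (rp F ψ) j x) = 0
    rw [key hx hx, sf_self, zero_div, mul_zero, _root_.neg_zero, ite_self]
  · intro i j
    show sf F (vi (rp F ψ) i y) (vi (rp F ψ) j y) = 0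
    rw [key hy hy, sf_self, zero_div, mul_zero, _root_.neg_zero, ite_self]

/-- vectors fixed by the stabilizer of `j` -/
theorem fix_pt' (hC : CfgT (rp F ψ) (sf F)) (j : Fin 8) {w : D1 → F}
    (hw : ∀ g : ↥(alternatingGroup (Fin 8)), (g : Perm (Fin 8)) j = j → V F (ψ g) w = w) :
    ∃ u ∈ inv (rp F ψ) (Tg 8 gQ), w = vi (rp F ψ) j u := by
  obtain ⟨q, hq⟩ : ∃ q : ↥(alternatingGroup (Fin 8)), (q : Perm (Fin 8)) 7 = j := by
    obtain ⟨a, ha⟩ := exists_ne j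
    obtain ⟨g, hg, -⟩ := two_trans (i := j) (j := a) ha.symm
    obtain ⟨k, hk, -⟩ := two_trans (i := 7) (j := 6) (by decide)
    refine ⟨g * k⁻¹, ?_⟩
    have h1 : ((k⁻¹ : ↥(alternatingGroup (Fin 8))) : Perm (Fin 8)) 7 = 0 := by
      rw [Subgroup.coe_inv, Perm.inv_eq_iff_eq, hk]
    rw [Subgroup.coe_mul, Perm.mul_apply, h1, hg]
  obtain ⟨u, hu, h1⟩ := fix_pt hC (w := V F (ψ q⁻¹) w) (fun g hg => by
    have h2 := hw (q * g * q⁻¹) (by
      have h3 : ((q⁻¹ : ↥(alternatingGroup (Fin 8))) : Perm (Fin 8)) j = 7 := by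
        rw [Subgroup.coe_inv, Perm.inv_eq_iff_eq, hq]
      rw [Subgroup.coe_mul, Subgroup.coe_mul, Perm.mul_apply, Perm.mul_apply, h3, hg, hq])
    show V F (ψ g) (V F (ψ q⁻¹) w) = V F (ψ q⁻¹) w
    rw [map_mul ψ, V_mul] at h2
    have h4 : V F (ψ g) (V F (ψ q⁻¹) w) = V F (ψ q⁻¹) (V F (ψ (q * g)) (V F (ψ q⁻¹) w)) := by
      rw [← V_mul (ψ q⁻¹), ← map_mul ψ, inv_mul_cancel_left]
    rw [h4, h2])
  refine ⟨u, hu, ?_⟩
  have h2 : w = V F (ψ q) (V F (ψ q⁻¹) w) := by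
    rw [← V_mul, ← map_mul, mul_inv_cancel, map_one, V_one]
  rw [h2, h1]
  have h3 := vi_equi hC.toCfgU q 7 hu
  rw [hq] at h3
  exact h3

/-- **stability** -/
theorem stab_sev {H : Subgroup ↥(chevE7.group F)} {φ : ↥(alternatingGroup (Fin 8)) →* ↥(chevE7.group F)}
    (hM : MaxAlt H 8 φ) (hL : Lift φ ψ) (hC : CfgT (rp F ψ) (sf F)) {x y : D1 → F} (hx : x ∈ inv (rp F ψ) (Tg 8 gQ))
    (hy : y ∈ inv (rp F ψ) (Tg 8 gQ)) (hs : ∀ u ∈ inv (rp F ψ) (Tg 8 gQ), ∃ α β : F, u = α • x + β • y) :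
    Stab (V F) H (Submodule.span F (Set.range (fun i => vi (rp F ψ) i x) ∪ Set.range (fun i => vi (rp F ψ) i y))) := by
  intro h hh
  obtain ⟨σ, hσ⟩ := conj_psi (by norm_num) hM hL hh
  set W := Submodule.span F (Set.range (fun i => vi (rp F ψ) i x) ∪ Set.range (fun i => vi (rp F ψ) i y)) with hW
  have key : ∀ u ∈ inv (rp F ψ) (Tg 8 gQ), ∀ i, V F h (vi (rp F ψ) i u) ∈ W := by
    intro u hu i
    obtain ⟨u', hu', h1⟩ := fix_pt' hC (σ i) (w := V F h (vi (rp F ψ) i u)) (fun k hk => by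
      have h3 := hσ (cjm σ⁻¹ k) k (by rw [cjm_coe]; group)
      have h4 : V F (ψ (cjm σ⁻¹ k)) (vi (rp F ψ) i u) = vi (rp F ψ) i u := by
        have h5 := vi_equi hC.toCfgU (cjm σ⁻¹ k) i hu
        have h6 : (((cjm σ⁻¹ k : ↥(alternatingGroup (Fin 8))) : Perm (Fin 8))) i = i := by
          rw [cjm_coe, inv_inv, Perm.mul_apply, Perm.mul_apply, hk]
          exact σ.symm_apply_apply i
        rw [h6] at h5
        exact h5
      rw [← h3, ← V_mul, inv_mul_cancel_right, V_mul, h4])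
    rw [h1]
    obtain ⟨α, β, h2⟩ := hs u' hu'
    rw [h2, map_add, map_smul, map_smul]
    exact W.add_mem (W.smul_mem _ (Submodule.subset_span (Or.inl ⟨_, rfl⟩)))
      (W.smul_mem _ (Submodule.subset_span (Or.inr ⟨_, rfl⟩)))
  intro w hw
  induction hw using Submodule.span_induction with
  | mem z hz =>
    rcases hz with ⟨i, rfl⟩ | ⟨i, rfl⟩
    · exact key x hx i
    · exact key y hy i
  | zero => rw [map_zero]; exact W.zero_mem
  | add a b _ _ ha hb => rw [map_add]; exact W.add_mem ha hb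
  | smul c a _ ha => rw [map_smul]; exact W.smul_mem c ha

/-- the first form of the contradiction for `n = 8` -/
theorem odd8_of [Finite F] {p : ℕ} [hp : Fact p.Prime] [CharP F p] (hp2 : p ≠ 2) (hp5 : p ≠ 5)
    {H : Subgroup ↥(chevE7.group F)} {φ : ↥(alternatingGroup (Fin 8)) →* ↥(chevE7.group F)}
    (hM : MaxAlt H 8 φ) (hL : Lift φ ψ) (hC : CfgT (rp F ψ) (sf F))
    (hPQ : ∀ (a b : Fin 8 → D1 → F) (c : F), Sev ψ a b c → PQ (algebraMap F (AlgebraicClosure F)) a b) : False := by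
  obtain ⟨x, hx, y, hy, hx0, hs⟩ := exists_basis hC
  have h1 := sev_of hC hx hx0 hy hs
  exact no_eight (algebraMap F (AlgebraicClosure F)) hp2 hp5 hM hL h1 (stab_sev hM hL hC hx hy hs) (hPQ _ _ _ h1)

end

end Cfsg.Agent.R2.T1.P3
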