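import Mathlib
import Cfsg.Agent.R2.T1.Mu.Sing
import Cfsg.Agent.R2.T1.Mu2.Ts

/-!
# Totally pure stable subspaces (helper5)

`ts_pure` : a non-zero subspace of pure vectors is not stable under `H` if `|H| < q^27`.
-/

set_option autoImplicit false

namespace Cfsg.Agent.R2.T1.P3

open Cfsg Cfsg.Lie Module
open Cfsg.Agent.H943.E7V.Block (D1 rho)
open Cfsg.Agent.R2.T1 Cfsg.Agent.R2.PX

theorem ts_pure {F : Type*} [Field F] [Finite F] (h2 : (2 : F) ≠ 0) {H : Subgroup ↥(chevE7.group F)} (hM : IsCoatom H)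
    (hcard : Nat.card ↥H < Nat.card F ^ 27) {W : Submodule F (D1 → F)} (hW : Stab (V F) H W) (h0 : W ≠ ⊥)
    (hs : ∀ x ∈ W, Pure F x) : False :=
  Mu2.ts hM hcard hW h0 fun x hx => (Mu.pure_iff_sing h2 x).1 (hs x hx)

end Cfsg.Agent.R2.T1.P3
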